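import Cfsg.Agent.Lib.Helper65.GR.Defs

set_option autoImplicit false

namespace Cfsg.Agent.Lib.Helper65.GR

theorem cmb_le {ι : Type*} [Fintype ι] (N t : ℕ) (ht : Fintype.card ι = t) :
    Nat.card {a : ι → ℕ // ∑ P, a P ≤ N} = Nat.choose (N + t) t := by
  classical
  let e : {a : ι → ℕ // ∑ P, a P ≤ N} ≃ {b : Option ι → ℕ // ∑ x, b x = N} :=
    { toFun := fun a => ⟨fun x => Option.elim x (N - ∑ P, a.1 P) a.1, by
        rw [Fintype.sum_option]
        simp only [Option.elim]
        have := a.2
        omega⟩
      invFun := fun b => ⟨fun P => b.1 (some P), by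
        have := b.2
        rw [Fintype.sum_option] at this
        show ∑ P, b.1 (some P) ≤ N
        omega⟩
      left_inv := fun a => by
        apply Subtype.ext
        funext P
        rfl
      right_inv := fun b => by
        apply Subtype.ext
        funext x
        have := b.2
        rw [Fintype.sum_option] at this
        cases x with
        | none => simp only [Option.elim]; omega
        | some P => rfl }
  rw [Nat.card_congr e, ← Nat.card_congr (Sym.equivNatSumOfFintype (Option ι) N),
    Nat.card_eq_fintype_card, Sym.card_sym_eq_choose, Fintype.card_option, ht]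
  have : t + 1 + N - 1 = N + t := by omega
  rw [this, Nat.choose_symm_add]

/-- [CMB] -/
theorem card_labels {ι : Type*} [Fintype ι] (n i t : ℕ) (hi : 1 ≤ i) (ht : Fintype.card ι = t) :
    Nat.card {a : ι → ℕ // a ≠ 0 ∧ i * ∑ P, a P ≤ n} = Nat.choose (n / i + t) t - 1 := by
  classical
  rw [← cmb_le (ι := ι) (n / i) t ht]
  have hfin : Finite {a : ι → ℕ // ∑ P, a P ≤ n / i} := by
    apply Nat.finite_of_card_ne_zero
    rw [cmb_le (ι := ι) (n / i) t ht]
    exact (Nat.choose_pos (Nat.le_add_left _ _)).ne'
  let e : Option {a : ι → ℕ // a ≠ 0 ∧ i * ∑ P, a P ≤ n} ≃ {a : ι → ℕ // ∑ P, a P ≤ n / i} :=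
    { toFun := fun x => Option.elim x ⟨0, by simp⟩ (fun a => ⟨a.1, by
        rw [Nat.le_div_iff_mul_le hi, mul_comm]; exact a.2.2⟩)
      invFun := fun a => if h : a.1 = 0 then none else some ⟨a.1, h, by
        have := a.2
        rw [Nat.le_div_iff_mul_le hi, mul_comm] at this; exact this⟩
      left_inv := fun x => by
        cases x with
        | none => simp
        | some a => simp [a.2.1]
      right_inv := fun a => by
        by_cases h : a.1 = 0
        · simp only [h, dite_true, Option.elim]
          exact Subtype.ext h.symm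
        · simp only [h, dite_false, Option.elim] }
  have hfin2 : Finite {a : ι → ℕ // a ≠ 0 ∧ i * ∑ P, a P ≤ n} :=
    Finite.of_injective (fun a => e (some a)) (fun a b h => Option.some_injective _ (e.injective h))
  rw [← Nat.card_congr e, Finite.card_option]
  omega

end Cfsg.Agent.Lib.Helper65.GR
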