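import Cfsg.Agent.Lib.Helper65.GR.Defs

set_option autoImplicit false

namespace Cfsg.Agent.Lib.Helper65.GR

/-- [CNT] abstract count of classes by labels. -/
theorem card_classes_label {Q : Type*} [Group Q] (P : Q → Prop) {L : Type*} (φ : L → Q)
    (h1 : ∀ l, P (φ l)) (h2 : ∀ l l', IsConj (φ l) (φ l') → l = l')
    (h3 : ∀ x, P x → ∃ l, IsConj x (φ l)) :
    Nat.card {C : ConjClasses Q // ∃ g, ConjClasses.mk g = C ∧ P g} = Nat.card L := by
  let Φ : L → {C : ConjClasses Q // ∃ g, ConjClasses.mk g = C ∧ P g} := fun l =>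
    ⟨ConjClasses.mk (φ l), φ l, rfl, h1 l⟩
  have hbij : Function.Bijective Φ := by
    constructor
    · intro l l' h
      exact h2 l l' (ConjClasses.mk_eq_mk_iff_isConj.mp (congrArg Subtype.val h))
    · rintro ⟨C, g, rfl, hP⟩
      obtain ⟨l, hl⟩ := h3 g hP
      exact ⟨l, Subtype.ext (ConjClasses.mk_eq_mk_iff_isConj.mpr hl.symm)⟩
  exact (Nat.card_congr (Equiv.ofBijective Φ hbij)).symm

end Cfsg.Agent.Lib.Helper65.GR
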