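import Cfsg.Agent.Lib.Helper65.GR.Defs
import Cfsg.Agent.Lib.Helper50.SemiClass

set_option autoImplicit false

namespace Cfsg.Agent.Lib.Helper65.GR

open Polynomial

variable {F : Type*} [Field F]

/-- [NE] -/
theorem charpoly_ne_cp_zero (p : ℕ) [Fact p.Prime] [CharP F p] (r n i : ℕ) (hr : r.Prime)
    (hrp : r ≠ p) (g : GL (Fin n) F) (hg : orderOf g = r) :
    (g : Matrix (Fin n) (Fin n) F).charpoly ≠ cp F r n i 0 := by
  intro h
  have hp : p.Prime := Fact.out
  have h1 : ((1 : GL (Fin n) F) : Matrix (Fin n) (Fin n) F).charpoly = cp F r n i 0 := by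
    rw [Units.val_one, Matrix.charpoly_one]
    simp [cp]
  obtain ⟨c, hc⟩ := Cfsg.Agent.Lib.Helper50.SemiConj.conj_GL p g 1
    (by rw [hg]; exact (Nat.coprime_primes hr hp).mpr hrp) (by simp) (by rw [h, h1])
  have : g = 1 := by
    have h2 : g = c⁻¹ * 1 * c := by rw [← hc]; group
    rw [h2]; group
  rw [this, orderOf_one] at hg
  exact hr.one_lt.ne hg

end Cfsg.Agent.Lib.Helper65.GR
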