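import Cfsg.Agent.Lib.Helper65.GR.IRR3

set_option autoImplicit false

namespace Cfsg.Agent.Lib.Helper65.GR

open Polynomial

variable {F : Type*} [Field F]

theorem inj_coprime (r : ℕ) (P Q : F[X]) (hP : P ∈ irr F r) (hQ : Q ∈ irr F r) (h : P ≠ Q) :
    IsCoprime Q P := by
  obtain ⟨mP, iP, -⟩ := irr_spec r P hP
  obtain ⟨mQ, iQ, -⟩ := irr_spec r Q hQ
  rw [iQ.coprime_iff_not_dvd]
  intro hd
  exact h (Polynomial.eq_of_monic_of_associated mQ mP (iQ.associated_of_dvd iP hd)).symm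

theorem inj_le (r n i : ℕ) (hr : r.Prime) (hrF : (r : F) ≠ 0) (a b : irr F r → ℕ)
    (h : cp F r n i a = cp F r n i b) (Q : irr F r) : a Q ≤ b Q := by
  classical
  obtain ⟨mQ, iQ, -⟩ := irr_spec r Q.1 Q.2
  have h1 : (Q : F[X]) ^ a Q ∣ cp F r n i a := by
    unfold cp
    apply Dvd.dvd.mul_left
    exact Finset.dvd_prod_of_mem (fun P : irr F r => (P : F[X]) ^ a P) (Finset.mem_univ Q)
  rw [h] at h1
  have h2 : cp F r n i b = (Q : F[X]) ^ b Q *
      ((X - 1) ^ (n - i * ∑ P, b P) * ∏ P ∈ Finset.univ.erase Q, (P : F[X]) ^ b P) := by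
    unfold cp
    rw [← Finset.mul_prod_erase Finset.univ (fun P : irr F r => (P : F[X]) ^ b P)
      (Finset.mem_univ Q)]
    ring
  rw [h2] at h1
  have h3 : IsCoprime ((Q : F[X]) ^ a Q)
      ((X - 1) ^ (n - i * ∑ P, b P) * ∏ P ∈ Finset.univ.erase Q, (P : F[X]) ^ b P) := by
    apply IsCoprime.pow_left
    apply IsCoprime.mul_right
    · exact (irr_coprime r hr hrF Q.1 Q.2).pow_right
    · apply IsCoprime.prod_right
      intro P hP
      apply IsCoprime.pow_right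
      apply inj_coprime r P.1 Q.1 P.2 Q.2
      intro hPQ
      exact (Finset.mem_erase.mp hP).1 (Subtype.ext hPQ)
  have h4 := h3.dvd_of_dvd_mul_right h1
  exact (pow_dvd_pow_iff iQ.ne_zero iQ.not_isUnit).mp h4

/-- [INJ] -/
theorem cp_injective (r n i : ℕ) (hr : r.Prime) (hrF : (r : F) ≠ 0) (a b : irr F r → ℕ)
    (h : cp F r n i a = cp F r n i b) : a = b := by
  funext Q
  exact le_antisymm (inj_le r n i hr hrF a b h Q) (inj_le r n i hr hrF b a h.symm Q)

/-- [NDG] -/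
theorem cp_natDegree (r n i : ℕ) (a : irr F r → ℕ) (hdeg : ∀ P ∈ irr F r, P.natDegree = i)
    (ha : i * ∑ P, a P ≤ n) : (cp F r n i a).natDegree = n := by
  unfold cp
  have m1 : ((X - 1 : F[X]) ^ (n - i * ∑ P, a P)).Monic := by
    have := (monic_X_sub_C (1 : F)).pow (n - i * ∑ P, a P)
    simpa using this
  have m2 : (∏ P : irr F r, (P : F[X]) ^ a P).Monic :=
    monic_prod_of_monic _ _ (fun P _ => (irr_spec r P.1 P.2).1.pow _)
  rw [m1.natDegree_mul m2, natDegree_prod_of_monic _ _ (fun P _ => (irr_spec r P.1 P.2).1.pow _)]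
  have h1 : ((X - 1 : F[X]) ^ (n - i * ∑ P, a P)).natDegree = n - i * ∑ P, a P := by
    have h := (monic_X_sub_C (1 : F)).natDegree_pow (n - i * ∑ P, a P)
    rw [natDegree_X_sub_C, mul_one] at h
    simpa using h
  have h2 : ∑ P : irr F r, ((P : F[X]) ^ a P).natDegree = i * ∑ P, a P := by
    rw [Finset.mul_sum]
    apply Finset.sum_congr rfl
    intro P _
    rw [(irr_spec r P.1 P.2).1.natDegree_pow, hdeg P.1 P.2, mul_comm]
  rw [h1, h2]
  omega

/-- [DVD] -/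
theorem cp_dvd (r n i : ℕ) (hr : r.Prime) (hrF : (r : F) ≠ 0) (hi : 1 ≤ i) (a : irr F r → ℕ)
    (ha : i * ∑ P, a P ≤ n) : cp F r n i a ∣ (X ^ r - 1) ^ n := by
  rw [← cyclotomic_prime_mul_X_sub_one F r (hn := ⟨hr⟩), ← prod_irr r hrF, mul_comm, mul_pow]
  unfold cp
  apply mul_dvd_mul
  · exact pow_dvd_pow _ (Nat.sub_le _ _)
  · rw [← Finset.prod_pow, ← Finset.prod_coe_sort (irr F r)]
    apply Finset.prod_dvd_prod_of_dvd
    intro P _
    apply pow_dvd_pow
    have h1 : a P ≤ ∑ P, a P := Finset.single_le_sum (fun _ _ => Nat.zero_le _) (Finset.mem_univ P)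
    have h2 : ∑ P, a P ≤ i * ∑ P, a P := Nat.le_mul_of_pos_left _ hi
    omega

end Cfsg.Agent.Lib.Helper65.GR
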