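import Mathlib

/-! Ladder GLR (S2568): classes of elements of prime order `r` in `GL_n(q)`.  Definitions. -/

set_option autoImplicit false

namespace Cfsg.Agent.Lib.Helper65.GR

open Polynomial

/-- The monic irreducible factors of the `r`-th cyclotomic polynomial over `F`. -/
noncomputable def irr (F : Type*) [Field F] (r : ℕ) : Finset F[X] := by
  classical
  exact (UniqueFactorizationMonoid.normalizedFactors (cyclotomic r F)).toFinset

/-- The characteristic polynomial with multiplicities `a`. -/
noncomputable def cp (F : Type*) [Field F] (r n i : ℕ) (a : irr F r → ℕ) : F[X] :=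
  (X - 1) ^ (n - i * ∑ P, a P) * ∏ P : irr F r, (P : F[X]) ^ a P

end Cfsg.Agent.Lib.Helper65.GR
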