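import Cfsg.Agent.Lib.Helper65.GR.INJ
import Cfsg.Agent.Lib.Helper48.PGLInv
import Cfsg.Agent.Lib.Helper50.SemiClass
import Cfsg.Agent.Lib.Helper50.SemiDet

set_option autoImplicit false

namespace Cfsg.Agent.Lib.Helper65.GR

open Polynomial

variable {F : Type*} [Field F]

/-- [FAC] -/
theorem charpoly_eq_cp (r n i : ℕ) (hr : r.Prime) (hrF : (r : F) ≠ 0)
    (hdeg : ∀ P ∈ irr F r, P.natDegree = i) (M : Matrix (Fin n) (Fin n) F) (hM : M ^ r = 1) :
    ∃ a : irr F r → ℕ, i * ∑ P, a P ≤ n ∧ M.charpoly = cp F r n i a := by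
  classical
  set N := UniqueFactorizationMonoid.normalizedFactors M.charpoly with hN
  have hne : M.charpoly ≠ 0 := (Matrix.charpoly_monic M).ne_zero
  have hann : aeval M (X ^ r - 1 : F[X]) = 0 := by simp [hM]
  have hmon : ∀ Q ∈ N, Q.Monic := by
    intro Q hQ
    have iQ := UniqueFactorizationMonoid.irreducible_of_normalized_factor Q hQ
    rw [← UniqueFactorizationMonoid.normalize_normalized_factor Q hQ]
    exact monic_normalize iQ.ne_zero
  have mX : (X - 1 : F[X]).Monic := by simpa using monic_X_sub_C (1 : F)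
  have iX : Irreducible (X - 1 : F[X]) := by simpa using irreducible_X_sub_C (1 : F)
  have hmem : ∀ Q ∈ N, Q = X - 1 ∨ Q ∈ irr F r := by
    intro Q hQ
    have iQ := UniqueFactorizationMonoid.irreducible_of_normalized_factor Q hQ
    have mQ := hmon Q hQ
    have dQ := Cfsg.Agent.Lib.Helper48.dvd_of_aeval_eq_zero' M _ Q hann iQ
      (UniqueFactorizationMonoid.dvd_of_mem_normalizedFactors hQ)
    rw [← cyclotomic_prime_mul_X_sub_one F r (hn := ⟨hr⟩)] at dQ
    rcases iQ.prime.dvd_or_dvd dQ with h | h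
    · right; exact mem_irr r hr.pos Q mQ iQ h
    · left; exact eq_of_monic_of_associated mQ mX (iQ.associated_of_dvd iX h)
  have hprod : M.charpoly = N.prod :=
    (eq_of_monic_of_associated (monic_multiset_prod_of_monic N id (fun Q hQ => hmon Q hQ) |> fun h => by
      simpa using h) (Matrix.charpoly_monic M)
      (UniqueFactorizationMonoid.prod_normalizedFactors hne)).symm
  have hX : (X - 1 : F[X]) ∉ irr F r := fun h => by
    have := irr_coprime r hr hrF _ h
    exact iX.not_isUnit (isCoprime_self.mp this)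
  have h1 : N.prod = ∏ Q ∈ insert (X - 1) (irr F r), Q ^ N.count Q := by
    rw [Finset.prod_multiset_count]
    apply Finset.prod_subset
    · intro Q hQ
      rw [Multiset.mem_toFinset] at hQ
      rcases hmem Q hQ with rfl | h
      · simp
      · simp [h]
    · intro Q _ hQ
      rw [Multiset.mem_toFinset] at hQ
      rw [Multiset.count_eq_zero_of_notMem hQ, pow_zero]
  rw [Finset.prod_insert hX] at h1
  let a : irr F r → ℕ := fun P => N.count P.1
  have h2 : M.charpoly = cp F r (N.count (X - 1) + i * ∑ P, a P) i a := by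
    unfold cp
    rw [hprod, h1, ← Finset.prod_coe_sort, Nat.add_sub_cancel]
  have h3 : n = N.count (X - 1) + i * ∑ P, a P := by
    have := congrArg natDegree h2
    rw [Matrix.charpoly_natDegree_eq_dim, Fintype.card_fin,
      cp_natDegree r _ i a hdeg (Nat.le_add_left _ _)] at this
    exact this
  refine ⟨a, by omega, ?_⟩
  rw [h2, ← h3]

/-- [EX] -/
theorem exists_order [Fintype F] (p : ℕ) [Fact p.Prime] [CharP F p] (r n i : ℕ) (hr : r.Prime)
    (hrp : r ≠ p) (hi : 1 ≤ i) (hdeg : ∀ P ∈ irr F r, P.natDegree = i) (a : irr F r → ℕ)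
    (ha0 : a ≠ 0) (ha : i * ∑ P, a P ≤ n) :
    ∃ g : GL (Fin n) F, orderOf g = r ∧ (g : Matrix (Fin n) (Fin n) F).charpoly = cp F r n i a := by
  have hp : p.Prime := Fact.out
  have hrF : (r : F) ≠ 0 := by
    intro h
    rw [CharP.cast_eq_zero_iff F p r] at h
    exact hrp ((Nat.prime_dvd_prime_iff_eq hp hr).mp h).symm
  have hmon := cp_monic (F := F) r n i a
  have hdegn := cp_natDegree r n i a hdeg ha
  have hdvd := cp_dvd r n i hr hrF hi a ha
  have h0 : (cp F r n i a).coeff 0 ≠ 0 := by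
    intro h
    have hX : (X : F[X]) ∣ cp F r n i a := X_dvd_iff.mpr h
    have := prime_X.dvd_of_dvd_pow (hX.trans hdvd)
    rw [X_dvd_iff] at this
    simp [hr.ne_zero.symm] at this
  obtain ⟨g, hg, hc⟩ := Cfsg.Agent.Lib.Helper50.SemiConj.exists_GL_coprime p _ hmon hdegn h0
  refine ⟨g, ?_, hc⟩
  have hn0 : n ≠ 0 := by
    rintro rfl
    apply ha0
    have h1 : ∑ P, a P = 0 := by
      rcases Nat.eq_zero_or_pos (∑ P, a P) with h | h
      · exact h
      · have : 1 * 1 ≤ i * ∑ P, a P := Nat.mul_le_mul hi h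
        omega
    funext P
    exact (Finset.sum_eq_zero_iff.mp h1) P (Finset.mem_univ P)
  have hss : Module.End.IsSemisimple (Matrix.toLin' g.1) :=
    Cfsg.Agent.Lib.Helper50.SemiConj.isSemisimple_toLin' g.1 (orderOf g)
      (Cfsg.Agent.Lib.Helper50.SemiConj.cast_ne_zero_of_coprime p hg hp.ne_one)
      (by rw [← Units.val_pow_eq_pow_val, pow_orderOf_eq_one, Units.val_one])
  have hsq := hss.minpoly_squarefree
  rw [Matrix.minpoly_toLin'] at hsq
  have h1 : minpoly F g.1 ∣ (X ^ r - 1) ^ n := by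
    refine (Matrix.minpoly_dvd_charpoly g.1).trans ?_
    rw [hc]; exact hdvd
  rw [hsq.dvd_pow_iff_dvd hn0, minpoly.dvd_iff] at h1
  have h2 : g ^ r = 1 := by
    apply Units.ext
    rw [Units.val_pow_eq_pow_val, Units.val_one]
    simpa [sub_eq_zero] using h1
  haveI : Fact r.Prime := ⟨hr⟩
  apply orderOf_eq_prime h2
  rintro rfl
  apply ha0
  apply cp_injective r n i hr hrF
  rw [← hc, Units.val_one, Matrix.charpoly_one]
  simp [cp]

end Cfsg.Agent.Lib.Helper65.GR
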