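import Cfsg.Agent.Lib.Helper65.GR.Defs

set_option autoImplicit false

namespace Cfsg.Agent.Lib.Helper65.GR

open Polynomial

variable {F : Type*} [Field F]

/-- [IRR1] -/
theorem irr_spec (r : ℕ) (P : F[X]) (hP : P ∈ irr F r) :
    P.Monic ∧ Irreducible P ∧ P ∣ cyclotomic r F := by
  classical
  unfold irr at hP
  rw [Multiset.mem_toFinset] at hP
  have h1 := UniqueFactorizationMonoid.irreducible_of_normalized_factor P hP
  refine ⟨?_, h1, UniqueFactorizationMonoid.dvd_of_mem_normalizedFactors hP⟩
  have h2 := UniqueFactorizationMonoid.normalize_normalized_factor P hP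
  rw [← h2]
  exact Polynomial.monic_normalize h1.ne_zero

/-- [IRR2] -/
theorem mem_irr (r : ℕ) (hr : 0 < r) (P : F[X]) (h1 : P.Monic) (h2 : Irreducible P)
    (h3 : P ∣ cyclotomic r F) : P ∈ irr F r := by
  classical
  unfold irr
  rw [Multiset.mem_toFinset]
  obtain ⟨Q, hQ, hPQ⟩ := UniqueFactorizationMonoid.exists_mem_normalizedFactors_of_dvd
    (cyclotomic_ne_zero r F) h2 h3
  have hQm : Q.Monic := by
    have h4 := UniqueFactorizationMonoid.normalize_normalized_factor Q hQ
    rw [← h4]
    exact Polynomial.monic_normalize (UniqueFactorizationMonoid.irreducible_of_normalized_factor Q hQ).ne_zero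
  rw [Polynomial.eq_of_monic_of_associated h1 hQm hPQ]
  exact hQ

/-- [MON] -/
theorem cp_monic (r n i : ℕ) (a : irr F r → ℕ) : (cp F r n i a).Monic := by
  unfold cp
  apply Monic.mul
  · exact (monic_X_sub_C (1 : F)).pow _ |> fun h => by simpa using h
  · apply monic_prod_of_monic
    intro P _
    exact (irr_spec r P.1 P.2).1.pow _

end Cfsg.Agent.Lib.Helper65.GR
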