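import Cfsg.Agent.Lib.Helper65.GR.IRR1

set_option autoImplicit false

namespace Cfsg.Agent.Lib.Helper65.GR

open Polynomial

variable {F : Type*} [Field F]

/-- [IRR3] -/
theorem prod_irr (r : ℕ) (hr : (r : F) ≠ 0) : ∏ P ∈ irr F r, P = cyclotomic r F := by
  classical
  haveI : NeZero (r : F) := ⟨hr⟩
  have hsq : Squarefree (cyclotomic r F) := (separable_cyclotomic r F).squarefree
  have hnd := (UniqueFactorizationMonoid.squarefree_iff_nodup_normalizedFactors
    (cyclotomic_ne_zero r F)).mp hsq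
  have h1 : ∏ P ∈ irr F r, P = (UniqueFactorizationMonoid.normalizedFactors (cyclotomic r F)).prod := by
    unfold irr
    rw [Finset.prod_eq_multiset_prod, Multiset.toFinset_val, Multiset.dedup_eq_self.mpr hnd,
      Multiset.map_id']
  have h2 := UniqueFactorizationMonoid.prod_normalizedFactors (cyclotomic_ne_zero r F)
  rw [← h1] at h2
  apply Polynomial.eq_of_monic_of_associated _ (cyclotomic.monic r F) h2
  apply monic_prod_of_monic
  intro P hP
  exact (irr_spec r P hP).1

/-- [IRR4] -/
theorem irr_coprime (r : ℕ) (hr : r.Prime) (hrF : (r : F) ≠ 0) (P : F[X]) (hP : P ∈ irr F r) :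
    IsCoprime P (X - 1) := by
  obtain ⟨-, hirr, hdvd⟩ := irr_spec r P hP
  have hsep : (X ^ r - 1 : F[X]).Separable := by
    have := separable_X_pow_sub_C (1 : F) hrF one_ne_zero
    simpa using this
  rw [← cyclotomic_prime_mul_X_sub_one F r (hn := ⟨hr⟩)] at hsep
  have := hsep.isCoprime
  exact this.of_isCoprime_of_dvd_left hdvd

/-- [DEG] -/
theorem irr_natDegree [Fintype F] (p : ℕ) [Fact p.Prime] [CharP F p] (r : ℕ) (hr : r.Prime)
    (hrp : r ≠ p) (P : F[X]) (hP : P ∈ irr F r) :
    P.natDegree = orderOf ((Fintype.card F : ℕ) : ZMod r) := by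
  obtain ⟨-, hirr, hdvd⟩ := irr_spec r P hP
  have hp : p.Prime := Fact.out
  obtain ⟨f, -, hf⟩ := FiniteField.card F p
  have hcop : p.Coprime r := (Nat.coprime_primes hp hr).mpr hrp.symm
  rw [natDegree_of_dvd_cyclotomic_of_irreducible hf hcop hdvd hirr, ← orderOf_units,
    ZMod.coe_unitOfCoprime, hf]

/-- [CARD] -/
theorem card_irr [Fintype F] (p : ℕ) [Fact p.Prime] [CharP F p] (r i t : ℕ) (hr : r.Prime)
    (hrp : r ≠ p) (hi : i = orderOf ((Fintype.card F : ℕ) : ZMod r)) (ht : t * i = r - 1) :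
    (irr F r).card = t := by
  have hp : p.Prime := Fact.out
  have hrF : (r : F) ≠ 0 := by
    intro h
    rw [CharP.cast_eq_zero_iff F p r] at h
    exact hrp ((Nat.prime_dvd_prime_iff_eq hp hr).mp h).symm
  have h1 := congrArg natDegree (prod_irr (F := F) r hrF)
  rw [natDegree_cyclotomic, Nat.totient_prime hr, natDegree_prod_of_monic _ _
    (fun P hP => (irr_spec r P hP).1), Finset.sum_congr rfl
    (fun P hP => (irr_natDegree p r hr hrp P hP).trans hi.symm), Finset.sum_const, smul_eq_mul,
    ← ht] at h1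
  have hi0 : 0 < i := by
    rcases Nat.eq_zero_or_pos i with h | h
    · rw [h, mul_zero] at ht
      have := hr.two_le
      omega
    · exact h
  exact Nat.eq_of_mul_eq_mul_right hi0 h1

end Cfsg.Agent.Lib.Helper65.GR
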